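import Cfsg.Agent.Lib.SRG77.Local
import Cfsg.Agent.Lib.SRG77.Tables

/-!
Coordinates for the 16 neighbours of a vertex of a strongly regular graph with parameters (77, 16, 0, 4):
all 60 blocks are among the blocks of the table.
-/

set_option autoImplicit false
set_option linter.unusedSectionVars false

namespace Cfsg.Agent.Lib.SRG77

open Finset

variable {V : Type*} [Fintype V] [DecidableEq V] {G : SimpleGraph V} [DecidableRel G.Adj] {x : V}

/-- A block in coordinates. -/
def pre (G : SimpleGraph V) [DecidableRel G.Adj] (x : V) (e : Fin 16 → V) (b : V) : Finset (Fin 16) :=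
  univ.filter fun n => e n ∈ blk G x b

/-- Coordinates on the neighbours of `x`. -/
def IsFrame (G : SimpleGraph V) [DecidableRel G.Adj] (x : V) (e : Fin 16 → V) : Prop :=
  Function.Injective e ∧ ∀ n, e n ∈ nb G x

/-- Four remote vertices with one residual vector. -/
def IsCls (G : SimpleGraph V) [DecidableRel G.Adj] (x : V) (d : Fin 4 → V) : Prop :=
  Function.Injective d ∧ ∀ k, d k ∈ remote G x ∧ kap G x (d 0) (d k) = 4

theorem four_points {s : Finset (Fin 16)} (hs : s.card = 4) :
    ∃ a b c d : Fin 16, a < b ∧ b < c ∧ c < d ∧ (∀ t, (s ∩ setOfMask t).card = cnt a b c d t) ∧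
      ∀ t, (setOfMask t).card = 4 → (cnt a b c d t = 4 ↔ s = setOfMask t) := by
  let o := s.orderEmbOfFin hs
  have hs' : s = {o 0, o 1, o 2, o 3} := by
    conv_lhs => rw [← image_orderEmbOfFin_univ s hs]
    rw [show (univ : Finset (Fin 4)) = {0, 1, 2, 3} by decide]
    simp [o, image_insert]
  have h01 : o 0 < o 1 := o.strictMono (by decide)
  have h12 : o 1 < o 2 := o.strictMono (by decide)
  have h23 : o 2 < o 3 := o.strictMono (by decide)
  have hc : ∀ t, (s ∩ setOfMask t).card = cnt (o 0) (o 1) (o 2) (o 3) t := by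
    intro t
    rw [← filter_mem_eq_inter, card_filter]
    conv_lhs => rw [hs']
    rw [sum_insert (by simp [h01.ne, (h01.trans h12).ne, ((h01.trans h12).trans h23).ne]),
      sum_insert (by simp [h12.ne, (h12.trans h23).ne]), sum_insert (by simp [h23.ne]), sum_singleton]
    simp only [cnt, mem_setOfMask]
    rcases (t.testBit (o 0).val) <;> rcases (t.testBit (o 1).val) <;> rcases (t.testBit (o 2).val) <;>
      rcases (t.testBit (o 3).val) <;> rfl
  refine ⟨o 0, o 1, o 2, o 3, h01, h12, h23, hc, fun t ht => ⟨fun h => ?_, fun h => ?_⟩⟩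
  · rw [← hc] at h
    have h1 : s ∩ setOfMask t = s := eq_of_subset_of_card_le inter_subset_left (by omega)
    have h2 : s ∩ setOfMask t = setOfMask t := eq_of_subset_of_card_le inter_subset_right (by omega)
    exact h1.symm.trans h2
  · rw [← hc, h, inter_self, ht]

theorem special_ne : ∀ D E : Fin 5, ∀ k, D ≠ E → setOfMask (special E 0) ≠ setOfMask (special D k) := by
  decide +kernel

theorem pt_hpair_col : ∀ (n : Fin 6) (y k : Fin 4), pt (pairL n) y ∈ setOfMask (special 1 k) →
    pt (pairR n) y ∉ setOfMask (special 1 k) := by decide +kernel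

theorem pt_vpair_row : ∀ (m : Fin 6) (v k : Fin 4), pt v (pairL m) ∈ setOfMask (special 0 k) →
    pt v (pairR m) ∉ setOfMask (special 0 k) := by decide +kernel

theorem kk_sum : ∑ i, ∑ j, kk i j = 4 := by decide

theorem kk_ps : ∀ (P : Fin 2) (S : Fin 3), kk ⟨P.val, by omega⟩ ⟨S.val + 2, by omega⟩ = -2 := by decide

/-- The model adjacency. -/
def modelAdj : Unit ⊕ Fin 16 ⊕ Fin 60 → Unit ⊕ Fin 16 ⊕ Fin 60 → Prop
  | .inl _, .inr (.inl _) => True
  | .inr (.inl _), .inl _ => True
  | .inr (.inl n), .inr (.inr j) => (table j).testBit n.val = true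
  | .inr (.inr j), .inr (.inl n) => (table j).testBit n.val = true
  | .inr (.inr i), .inr (.inr j) => table i &&& table j = 0 ∧ parB i j = false
  | _, _ => False

variable (hG : G.IsSRGWith 77 16 0 4)
include hG

theorem image_frame {e : Fin 16 → V} (he : IsFrame G x e) : (univ : Finset (Fin 16)).image e = nb G x :=
  eq_of_subset_of_card_le (fun a ha => by obtain ⟨n, -, rfl⟩ := mem_image.1 ha; exact he.2 n)
    (by rw [card_image_of_injective _ he.1, card_nb hG]; simp)

theorem card_pre_inter {e : Fin 16 → V} (he : IsFrame G x e) (b c : V) :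
    (pre G x e b ∩ pre G x e c).card = (blk G x b ∩ blk G x c).card := by
  rw [← card_image_of_injective _ he.1]
  congr 1
  ext a
  simp only [mem_image, mem_inter, pre, mem_filter, mem_univ, true_and]
  constructor
  · rintro ⟨n, h, rfl⟩
    exact h
  · intro h
    have ha : a ∈ nb G x := (mem_inter.1 h.1).1
    rw [← image_frame hG he] at ha
    obtain ⟨n, -, rfl⟩ := mem_image.1 ha
    exact ⟨n, h, rfl⟩

theorem card_pre {e : Fin 16 → V} (he : IsFrame G x e) {b : V} (hb : b ∈ remote G x) :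
    (pre G x e b).card = 4 := by
  have := card_pre_inter hG he b b
  rwa [inter_self, inter_self, card_blk hG hb] at this

theorem pre_injective {e : Fin 16 → V} (he : IsFrame G x e) {b c : V} (hb : b ∈ remote G x)
    (hc : c ∈ remote G x) (h : pre G x e b = pre G x e c) : b = c := by
  by_contra hne
  have h2 := card_blk_inter_le hG hb hc hne
  rw [← card_pre_inter hG he, h, inter_self, card_pre hG he hc] at h2
  omega

theorem kap_one_iff {b c : V} (hb : b ∈ remote G x) :
    kap G x b c = 1 ↔ (blk G x b ∩ blk G x c).card = 1 := by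
  simp only [kap]
  split_ifs with h1 h2 h3
  · subst h1
    simp [card_blk hG hb]
  · simp [h2]
  · simp [h2]
  · simp [h2]

theorem kap_four_iff {b c : V} (hb : b ∈ remote G x) :
    kap G x b c = 4 ↔ c = b ∨ ((blk G x b ∩ blk G x c).card = 0 ∧ ¬ G.Adj b c) := by
  simp only [kap]
  split_ifs with h1 h2 h3
  · simp [h1]
  · simp [h2, Ne.symm h1]
  · simp [h3]
  · simp only [show ((-2 : ℤ) = 4) = False by simp, false_iff, not_or]
    exact ⟨Ne.symm h1, h3⟩

theorem kap_values (b c : V) : kap G x b c = 4 ∨ kap G x b c = 1 ∨ kap G x b c = -2 := by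
  simp only [kap]
  split_ifs <;> simp

theorem card_cls {b : V} (hb : b ∈ remote G x) :
    ((remote G x).filter fun c => kap G x b c = 4).card = 4 := by
  obtain ⟨h3, -⟩ := card_parallel hG hb
  have : (remote G x).filter (fun c => kap G x b c = 4) = insert b ((remote G x).filter fun c =>
      c ≠ b ∧ (blk G x b ∩ blk G x c).card = 0 ∧ ¬ G.Adj b c) := by
    ext c
    simp only [mem_filter, mem_insert, kap_four_iff hG hb]
    by_cases hcb : c = b
    · simp [hcb, hb]
    · simp [hcb]
  rw [this, card_insert_of_notMem (by simp), h3]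

theorem cls_mem {d : Fin 4 → V} (hd : IsCls G x d) {c : V} (hc : c ∈ remote G x)
    (h : kap G x (d 0) c = 4) : ∃ k, d k = c := by
  have himg : (univ : Finset (Fin 4)).image d = (remote G x).filter fun c => kap G x (d 0) c = 4 :=
    eq_of_subset_of_card_le
      (fun a ha => by obtain ⟨k, -, rfl⟩ := mem_image.1 ha; exact mem_filter.2 (hd.2 k))
      (by rw [card_image_of_injective _ hd.1, card_cls hG (hd.2 0).1]; simp)
  have hm : c ∈ (univ : Finset (Fin 4)).image d := by rw [himg]; exact mem_filter.2 ⟨hc, h⟩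
  simpa using hm

theorem kap_cls {d : Fin 4 → V} (hd : IsCls G x d) {b : V} (hb : b ∈ remote G x) (k : Fin 4) :
    kap G x b (d k) = kap G x b (d 0) := by
  rw [kap_comm hG (b := b), kap_comm hG (b := b)]
  exact (kap_eq_of_four hG (hd.2 0).1 (hd.2 k).1 hb (hd.2 k).2).symm

/-- Rows and columns. -/
theorem exists_grid (x : V) : ∃ (e : Fin 16 → V) (d : Fin 2 → Fin 4 → V), IsFrame G x e ∧
    (∀ D, IsCls G x (d D) ∧ ∀ k, pre G x e (d D k) = setOfMask (special ⟨D.val, by omega⟩ k)) ∧
    kap G x (d 0 0) (d 1 0) = 1 := by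
  classical
  obtain ⟨b0, hb0⟩ : (remote G x).Nonempty := card_pos.1 (by rw [card_remote hG]; norm_num)
  obtain ⟨-, c0, hc0, h1⟩ := card_parallel hG hb0
  have mk : ∀ b ∈ remote G x, ∃ d : Fin 4 → V, IsCls G x d ∧ d 0 = b := by
    intro b hb
    let E := equivFinOfCardEq (card_cls hG hb)
    have hbm : b ∈ (remote G x).filter fun c => kap G x b c = 4 :=
      mem_filter.2 ⟨hb, (kap_four_iff hG hb).2 (Or.inl rfl)⟩
    let d : Fin 4 → V := fun k => (E.symm (Equiv.swap 0 (E ⟨b, hbm⟩) k)).1
    have h0 : d 0 = b := by simp [d]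
    refine ⟨d, ⟨fun k l h => (Equiv.swap 0 (E ⟨b, hbm⟩)).injective (E.symm.injective (Subtype.ext h)),
      fun k => ?_⟩, h0⟩
    rw [h0]
    exact mem_filter.1 (E.symm (Equiv.swap 0 (E ⟨b, hbm⟩) k)).2
  obtain ⟨r, hr, hr0⟩ := mk b0 hb0
  obtain ⟨c, hc, hc0'⟩ := mk c0 hc0
  have hrc : kap G x (r 0) (c 0) = 1 := by rw [hr0, hc0']; exact (kap_one_iff hG hb0).2 h1
  have hone : ∀ n, (blk G x (c (colOf n)) ∩ blk G x (r (rowOf n))).card = 1 := by
    intro n
    rw [← kap_one_iff hG (hc.2 _).1, kap_cls hG hr (hc.2 _).1, kap_comm hG, kap_cls hG hc (hr.2 0).1, hrc]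
  have hex : ∀ n, ∃ a, a ∈ blk G x (c (colOf n)) ∧ a ∈ blk G x (r (rowOf n)) := by
    intro n
    obtain ⟨a, ha⟩ := card_pos.1 (by rw [hone n]; norm_num)
    exact ⟨a, (mem_inter.1 ha).1, (mem_inter.1 ha).2⟩
  choose e hec her using hex
  have uniq : ∀ (d : Fin 4 → V), IsCls G x d → ∀ k l a, a ∈ blk G x (d k) → a ∈ blk G x (d l) → k = l := by
    intro d hd k l a hk hl
    by_contra hne
    have h4 : kap G x (d k) (d l) = 4 := by
      rw [kap_cls hG hd (hd.2 k).1, kap_comm hG, (hd.2 k).2]
    rcases (kap_four_iff hG (hd.2 k).1).1 h4 with h | ⟨h, -⟩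
    · exact hne (hd.1 h.symm)
    · rw [card_eq_zero, eq_empty_iff_forall_notMem] at h
      exact h a (mem_inter.2 ⟨hk, hl⟩)
  have he : IsFrame G x e := by
    refine ⟨fun n n' h => ?_, fun n => (mem_inter.1 (hec n)).1⟩
    rw [← pt_colOf_rowOf n, ← pt_colOf_rowOf n', uniq c hc _ _ _ (hec n) (h ▸ hec n'),
      uniq r hr _ _ _ (her n) (h ▸ her n')]
  refine ⟨e, ![r, c], he, fun D => ?_, hrc⟩
  fin_cases D
  · refine ⟨hr, fun k => ?_⟩
    ext n
    refine Iff.trans ?_ (mem_special_row n k).symm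
    simp only [pre, mem_filter, mem_univ, true_and]
    exact ⟨fun h => uniq r hr _ _ _ (her n) h, fun h => h ▸ her n⟩
  · refine ⟨hc, fun k => ?_⟩
    ext n
    refine Iff.trans ?_ (mem_special_col n k).symm
    simp only [pre, mem_filter, mem_univ, true_and]
    exact ⟨fun h => uniq c hc _ _ _ (hec n) h, fun h => h ▸ hec n⟩

/-- Exactly one block of rectangle type through a pair inside a row or column. -/
theorem card_rect_through {d q a a' : V} (hd : d ∈ remote G x) (hq : q ∈ remote G x) (hdq : kap G x d q = 1)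
    (ha : a ∈ blk G x d) (ha' : a' ∈ blk G x d) (hne : a ≠ a')
    (hno : ∀ c ∈ remote G x, kap G x c q = 4 → a ∈ blk G x c → a' ∈ blk G x c → False) :
    ((remote G x).filter fun b => a ∈ blk G x b ∧ a' ∈ blk G x b ∧ kap G x b d = -2 ∧ kap G x b q = -2).card
      = 1 := by
  have hxa : G.Adj x a := by simpa [nb] using (mem_inter.1 ha).1
  have hxa' : G.Adj x a' := by simpa [nb] using (mem_inter.1 ha').1
  let T := (remote G x).filter fun b => a ∈ blk G x b ∧ a' ∈ blk G x b
  have hT : T.card = 3 := by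
    have hset : T = (nb G a ∩ nb G a').erase x := by
      ext c
      simp only [T, remote, blk, nb, mem_filter, mem_univ, true_and, mem_inter, mem_erase,
        SimpleGraph.mem_neighborFinset]
      constructor
      · rintro ⟨⟨h1, -⟩, ⟨-, h2⟩, -, h3⟩
        exact ⟨h1, h2.symm, h3.symm⟩
      · rintro ⟨h1, h2, h3⟩
        exact ⟨⟨h1, fun h => not_adj_of_common hG hxa.symm h2 h⟩, ⟨hxa, h2.symm⟩, hxa', h3.symm⟩
    rw [hset, card_erase_of_mem (by simp [nb, hxa.symm, hxa'.symm]), card_cn hG, if_neg hne,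
      if_neg (not_adj_of_common hG hxa hxa')]
  have htwo : ∀ u ∈ T, ∀ v ∈ T, u ≠ v → kap G x u v = -2 := by
    intro u hu v hv huv
    obtain ⟨hu0, hua, hua'⟩ := mem_filter.1 hu
    obtain ⟨hv0, hva, hva'⟩ := mem_filter.1 hv
    have hge : 2 ≤ (blk G x u ∩ blk G x v).card := by
      rw [← card_pair hne]
      exact card_le_card (by simp [insert_subset_iff, hua, hua', hva, hva'])
    rcases kap_values hG (x := x) u v with h | h | h
    · rcases (kap_four_iff hG hu0).1 h with h' | ⟨h', -⟩
      · exact absurd h'.symm huv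
      · omega
    · rw [kap_one_iff hG hu0] at h
      omega
    · exact h
  have hdT : d ∈ T := mem_filter.2 ⟨hd, ha, ha'⟩
  obtain ⟨u, v, huv, huvT⟩ := card_eq_two.1 (show (T.erase d).card = 2 by rw [card_erase_of_mem hdT, hT])
  have hu := mem_erase.1 (huvT.symm ▸ mem_insert_self u {v} : u ∈ T.erase d)
  have hv := mem_erase.1 (huvT.symm ▸ mem_insert_of_mem (mem_singleton_self v) : v ∈ T.erase d)
  obtain ⟨hu0, hua, hua'⟩ := mem_filter.1 hu.2
  obtain ⟨hv0, hva, hva'⟩ := mem_filter.1 hv.2
  have hsum := kap_zero_sum hG hd hu0 hv0 hq (htwo d hdT u hu.2 hu.1.symm) (htwo d hdT v hv.2 hv.1.symm)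
    (htwo u hu.2 v hv.2 huv)
  rw [hdq] at hsum
  have hun : kap G x u q ≠ 4 := fun h => hno u hu0 h hua hua'
  have hvn : kap G x v q ≠ 4 := fun h => hno v hv0 h hva hva'
  have hmem : ∀ w, w ∈ (remote G x).filter (fun b => a ∈ blk G x b ∧ a' ∈ blk G x b ∧ kap G x b d = -2 ∧
      kap G x b q = -2) ↔ (w = u ∨ w = v) ∧ kap G x w q = -2 := by
    intro w
    constructor
    · intro hw
      obtain ⟨hw0, h1, h2, h3, h4⟩ := mem_filter.1 hw
      refine ⟨?_, h4⟩
      have hwd : w ≠ d := fun h => by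
        rw [h, (kap_four_iff hG hd).2 (Or.inl rfl)] at h3
        norm_num at h3
      have hwm : w ∈ T.erase d := mem_erase.2 ⟨hwd, mem_filter.2 ⟨hw0, h1, h2⟩⟩
      rw [huvT] at hwm
      simpa using hwm
    · rintro ⟨rfl | rfl, h4⟩
      · exact mem_filter.2 ⟨hu0, hua, hua', htwo _ hu.2 d hdT hu.1, h4⟩
      · exact mem_filter.2 ⟨hv0, hva, hva', htwo _ hv.2 d hdT hv.1, h4⟩
  rcases kap_values hG (x := x) u q with h1 | h1 | h1
  · exact absurd h1 hun
  · refine card_eq_one.2 ⟨v, ?_⟩
    ext w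
    rw [hmem, mem_singleton]
    constructor
    · rintro ⟨rfl | rfl, h⟩
      · omega
      · rfl
    · rintro rfl
      exact ⟨Or.inr rfl, by omega⟩
  · refine card_eq_one.2 ⟨u, ?_⟩
    ext w
    rw [hmem, mem_singleton]
    constructor
    · rintro ⟨rfl | rfl, h⟩
      · rfl
      · omega
    · rintro rfl
      exact ⟨Or.inl rfl, h1⟩

/-- A block meeting every row and column evenly is a rectangle. -/
theorem exists_rect {e : Fin 16 → V} (he : IsFrame G x e) {d : Fin 2 → Fin 4 → V}
    (hd : ∀ D, IsCls G x (d D) ∧ ∀ k, pre G x e (d D k) = setOfMask (special ⟨D.val, by omega⟩ k))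
    {b : V} (hb : b ∈ remote G x) (h0 : kap G x b (d 0 0) = -2) (h1 : kap G x b (d 1 0) = -2) :
    ∃ m n, pre G x e b = setOfMask (rect m n) := by
  obtain ⟨a, b', c, d', hab, hbc, hcd, hcnt, hfour⟩ := four_points (card_pre hG he hb)
  obtain ⟨m, n, h⟩ := rect_of_profile a b' c d' hab hbc hcd (by
    intro D k
    rw [← hcnt, ← (hd D).2 k, card_pre_inter hG he]
    have hk : kap G x b (d D k) = -2 := by
      rw [kap_cls hG (hd D).1 hb]
      fin_cases D
      · exact h0
      · exact h1
    have hne : b ≠ d D k := fun h => by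
      rw [← h, (kap_four_iff hG hb).2 (Or.inl rfl)] at hk
      norm_num at hk
    have hle := card_blk_inter_le hG hb ((hd D).1.2 k).1 hne
    have hn1 : (blk G x b ∩ blk G x (d D k)).card ≠ 1 := fun h => by
      rw [(kap_one_iff hG hb).2 h] at hk
      norm_num at hk
    omega)
  exact ⟨m, n, (hfour _ (card_rect m n)).1 h⟩

/-- Coordinates with five classes. -/
theorem exists_five (x : V) : ∃ (e : Fin 16 → V) (d : Fin 5 → Fin 4 → V), IsFrame G x e ∧
    ∀ D, IsCls G x (d D) ∧ ∀ k, pre G x e (d D k) = setOfMask (special D k) := by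
  classical
  obtain ⟨e, d, he, hd, hrc⟩ := exists_grid hG x
  obtain ⟨hr, hrs⟩ := hd 0
  obtain ⟨hc, hcs⟩ := hd 1
  have hrs' : ∀ k, pre G x e (d 0 k) = setOfMask (special 0 k) := hrs
  have hcs' : ∀ k, pre G x e (d 1 k) = setOfMask (special 1 k) := hcs
  let R : Fin 6 → Fin 6 → Bool := fun m n => decide (∃ b ∈ remote G x, kap G x b (d 0 0) = -2 ∧
    kap G x b (d 1 0) = -2 ∧ pre G x e b = setOfMask (rect m n))
  have hRiff : ∀ m n, R m n = true ↔ ∃ b ∈ remote G x, kap G x b (d 0 0) = -2 ∧
      kap G x b (d 1 0) = -2 ∧ pre G x e b = setOfMask (rect m n) := fun m n => by simp [R]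
  have inblk : ∀ {b : V} {p : Fin 16}, p ∈ pre G x e b ↔ e p ∈ blk G x b := by
    intro b p
    simp [pre]
  have hinj : ∀ m n m' n', setOfMask (rect m n) = setOfMask (rect m' n') → m = m' ∧ n = n' := by
    decide +kernel
  have hH : ∀ n : Fin 6, ∀ y : Fin 4,
      (univ.filter fun m => inPair y m ∧ R m n = true).card = 1 := by
    intro n y
    have hne : e (pt (pairL n) y) ≠ e (pt (pairR n) y) := fun h =>
      pair_ne n (((colOf_pt (pairL n) y).1.symm.trans (by rw [he.1 h])).trans (colOf_pt (pairR n) y).1)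
    have hin : ∀ v, e (pt v y) ∈ blk G x (d 0 y) := fun v => by
      rw [← inblk, hrs', mem_special_row]
      exact (colOf_pt v y).2
    have hq : kap G x (d 0 y) (d 1 0) = 1 := by
      rw [kap_comm hG, kap_cls hG hr (hc.2 0).1, kap_comm hG, hrc]
    obtain ⟨b, hb⟩ := card_eq_one.1 (card_rect_through hG (hr.2 y).1 (hc.2 0).1 hq (hin (pairL n))
      (hin (pairR n)) hne (by
        intro c hc0 h4 h1 h2
        rw [kap_comm hG] at h4
        obtain ⟨k, rfl⟩ := cls_mem hG hc hc0 h4
        rw [← inblk, hcs'] at h1 h2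
        exact pt_hpair_col n y k h1 h2))
    have hbm := mem_singleton_self b
    rw [← hb, mem_filter] at hbm
    obtain ⟨hb0, hbl, hbr, hbd, hbq⟩ := hbm
    rw [kap_cls hG hr hb0] at hbd
    obtain ⟨m0, n0, hmn⟩ := exists_rect hG he hd hb0 hbd hbq
    rw [← inblk, hmn, mem_setOfMask] at hbl hbr
    obtain ⟨hn0, hy⟩ := rect_hpair n m0 n0 y hbl hbr
    refine card_eq_one.2 ⟨m0, ?_⟩
    ext m
    simp only [mem_filter, mem_univ, true_and, mem_singleton, hRiff]
    constructor
    · rintro ⟨hym, b', hb', h0', h1', hpre'⟩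
      have hmem := rect_hpair_mem m n y hym
      rw [← mem_setOfMask, ← mem_setOfMask, ← hpre', inblk, inblk] at hmem
      have : b' ∈ ({b} : Finset V) := by
        rw [← hb, mem_filter]
        exact ⟨hb', hmem.1, hmem.2, by rw [kap_cls hG hr hb']; exact h0', h1'⟩
      rw [mem_singleton.1 this, hmn] at hpre'
      exact (hinj _ _ _ _ hpre').1.symm
    · rintro rfl
      exact ⟨hy, b, hb0, hbd, hbq, hn0 ▸ hmn⟩
  choose f hf using fun n => matching_of_exists_unique (fun m => R m n) (hH n)
  have hV : ∀ (m : Fin 6) (v : Fin 4), (univ.filter fun n => inPair v n ∧ half m = f n).card = 1 := by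
    intro m v
    have hne : e (pt v (pairL m)) ≠ e (pt v (pairR m)) := fun h =>
      pair_ne m (((colOf_pt v (pairL m)).2.symm.trans (by rw [he.1 h])).trans (colOf_pt v (pairR m)).2)
    have hin : ∀ y, e (pt v y) ∈ blk G x (d 1 v) := fun y => by
      rw [← inblk, hcs', mem_special_col]
      exact (colOf_pt v y).1
    have hq : kap G x (d 1 v) (d 0 0) = 1 := by
      rw [kap_comm hG, kap_cls hG hc (hr.2 0).1, hrc]
    obtain ⟨b, hb⟩ := card_eq_one.1 (card_rect_through hG (hc.2 v).1 (hr.2 0).1 hq (hin (pairL m))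
      (hin (pairR m)) hne (by
        intro c hc0 h4 h1 h2
        rw [kap_comm hG] at h4
        obtain ⟨k, rfl⟩ := cls_mem hG hr hc0 h4
        rw [← inblk, hrs'] at h1 h2
        exact pt_vpair_row m v k h1 h2))
    have hbm := mem_singleton_self b
    rw [← hb, mem_filter] at hbm
    obtain ⟨hb0, hbl, hbr, hbd, hbq⟩ := hbm
    rw [kap_cls hG hc hb0] at hbd
    obtain ⟨m0, n0, hmn⟩ := exists_rect hG he hd hb0 hbq hbd
    rw [← inblk, hmn, mem_setOfMask] at hbl hbr
    obtain ⟨hm0, hx⟩ := rect_vpair m m0 n0 v hbl hbr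
    refine card_eq_one.2 ⟨n0, ?_⟩
    ext n
    simp only [mem_filter, mem_univ, true_and, mem_singleton, ← hf, hRiff]
    constructor
    · rintro ⟨hxn, b', hb', h0', h1', hpre'⟩
      have hmem := rect_vpair_mem m n v hxn
      rw [← mem_setOfMask, ← mem_setOfMask, ← hpre', inblk, inblk] at hmem
      have : b' ∈ ({b} : Finset V) := by
        rw [← hb, mem_filter]
        exact ⟨hb', hmem.1, hmem.2, by rw [kap_cls hG hc hb']; exact h1', h0'⟩
      rw [mem_singleton.1 this, hmn] at hpre'
      exact (hinj _ _ _ _ hpre').2.symm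
    · rintro rfl
      exact ⟨hx, b, hb0, hbq, hbd, hm0 ▸ hmn⟩
  obtain ⟨k, hk⟩ := relabel_of_exists_unique f hV
  have hS : ∀ (i : Fin 3) (l : Fin 4), ∃ b ∈ remote G x, kap G x b (d 0 0) = -2 ∧
      kap G x b (d 1 0) = -2 ∧ ∀ p : Fin 16, e (pt (relabel k (colOf p)) (rowOf p)) ∈ blk G x b ↔
        (special ⟨i.val + 2, by omega⟩ l).testBit p.val = true := by
    intro i l
    obtain ⟨m, n, hmn, hp⟩ := hk i l
    obtain ⟨b, hb, h0, h1, hpre⟩ := (hRiff m n).1 ((hf n m).2 hmn)
    refine ⟨b, hb, h0, h1, fun p => ?_⟩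
    rw [← inblk, hpre, mem_setOfMask, hp p]
  choose s hs0 hsr hsc hsp using hS
  let e' : Fin 16 → V := fun p => e (pt (relabel k (colOf p)) (rowOf p))
  have he' : IsFrame G x e' := by
    refine ⟨fun p q h => ?_, fun p => he.2 _⟩
    have h' := he.1 h
    have h1 := congrArg colOf h'
    have h2 := congrArg rowOf h'
    simp only [(colOf_pt _ _).1, (colOf_pt _ _).2] at h1 h2
    rw [← pt_colOf_rowOf p, ← pt_colOf_rowOf q, relabel_injective k h1, h2]
  let d' : Fin 5 → Fin 4 → V := ![d 0, fun v => d 1 (relabel k v), s 0, s 1, s 2]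
  have hpre' : ∀ D l, pre G x e' (d' D l) = setOfMask (special D l) := by
    intro D l
    ext p
    simp only [pre, mem_filter, mem_univ, true_and]
    fin_cases D
    · show e' p ∈ blk G x (d 0 l) ↔ p ∈ setOfMask (special 0 l)
      rw [← inblk, hrs', mem_special_row, mem_special_row, (colOf_pt _ _).2]
    · show e' p ∈ blk G x (d 1 (relabel k l)) ↔ p ∈ setOfMask (special 1 l)
      rw [← inblk, hcs', mem_special_col, mem_special_col, (colOf_pt _ _).1]
      exact ⟨fun h => relabel_injective k h, fun h => h ▸ rfl⟩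
    · exact (hsp 0 l p).trans mem_setOfMask.symm
    · exact (hsp 1 l p).trans mem_setOfMask.symm
    · exact (hsp 2 l p).trans mem_setOfMask.symm
  have hmem : ∀ D l, d' D l ∈ remote G x := by
    intro D l
    fin_cases D
    · exact (hr.2 l).1
    · exact (hc.2 _).1
    · exact hs0 0 l
    · exact hs0 1 l
    · exact hs0 2 l
  refine ⟨e', d', he', fun D => ⟨⟨fun l l' h => ?_, fun l => ⟨hmem D l, ?_⟩⟩, hpre' D⟩⟩
  · by_contra hne
    have h' := hpre' D l
    rw [h, hpre'] at h'
    have h0 := special_disjoint D l l' hne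
    rw [h', inter_self, card_special] at h0
    omega
  · by_cases hl : l = 0
    · subst hl
      exact (kap_four_iff hG (hmem D 0)).2 (Or.inl rfl)
    have hi : (blk G x (d' D 0) ∩ blk G x (d' D l)).card = 0 := by
      rw [← card_pre_inter hG he', hpre', hpre', special_disjoint D 0 l (Ne.symm hl)]
    have hS4 : ∀ i, kap G x (s i 0) (s i l) ≠ 1 → kap G x (s i 0) (s i l) = 4 := by
      intro i h1
      rcases kap_values hG (x := x) (s i 0) (s i l) with h | h | h
      · exact h
      · exact absurd h h1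
      · have := kap_zero_sum hG (hs0 i 0) (hs0 i l) (hr.2 0).1 (hc.2 0).1 h (hsr i 0) (hsr i l)
        rw [hsc, hsc, hrc] at this
        norm_num at this
    fin_cases D
    · exact (hr.2 l).2
    · exact (kap_cls hG hc (hc.2 _).1 (relabel k l)).trans (by rw [kap_comm hG]; exact (hc.2 _).2)
    all_goals
      refine hS4 _ fun h => ?_
      rw [kap_one_iff hG (hs0 _ _)] at h
      exact absurd (h.symm.trans hi) one_ne_zero

/-- Every block is in the table. -/
theorem exists_table (x : V) : ∃ e : Fin 16 → V, IsFrame G x e ∧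
    ∀ b ∈ remote G x, ∃ j, pre G x e b = setOfMask (table j) := by
  classical
  obtain ⟨e, d, he, hd⟩ := exists_five hG x
  refine ⟨e, he, fun b hb => ?_⟩
  have hkk : ∀ D E, kap G x (d D 0) (d E 0) = kk D E := by
    intro D E
    by_cases hDE : D = E
    · subst hDE
      rw [(kap_four_iff hG ((hd D).1.2 0).1).2 (Or.inl rfl)]
      fin_cases D <;> rfl
    · obtain ⟨hiff, hval⟩ := special_kk D E hDE
      rcases kap_values hG (x := x) (d D 0) (d E 0) with h | h | h
      · obtain ⟨k, hk⟩ := cls_mem hG (hd D).1 ((hd E).1.2 0).1 h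
        have := (hd E).2 0
        rw [← hk, (hd D).2] at this
        exact absurd this.symm (special_ne D E k hDE)
      · rw [kap_one_iff hG ((hd D).1.2 0).1, ← card_pre_inter hG he, (hd D).2, (hd E).2, hiff] at h
        rw [h, kap_one_iff hG ((hd D).1.2 0).1, ← card_pre_inter hG he, (hd D).2, (hd E).2, hiff]
        exact h
      · rcases hval with hv | hv
        · rw [← hiff, ← (hd D).2, ← (hd E).2, card_pre_inter hG he, ← kap_one_iff hG ((hd D).1.2 0).1,
            h] at hv
          norm_num at hv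
        · rw [h, hv]
  obtain ⟨a, b', c, d', hab, hbc, hcd, hcnt, hfour⟩ := four_points (card_pre hG he hb)
  have hcard : ∀ D m, cnt a b' c d' (special D m) = (blk G x b ∩ blk G x (d D m)).card := by
    intro D m
    rw [← hcnt, ← (hd D).2, card_pre_inter hG he]
  have heq : ∀ D m, cnt a b' c d' (special D m) = 4 ↔ b = d D m := by
    intro D m
    rw [hfour _ (card_special D m), ← (hd D).2]
    exact ⟨fun h => pre_injective hG he hb ((hd D).1.2 m).1 h, fun h => h ▸ rfl⟩
  have hone : ∀ D m, cnt a b' c d' (special D m) = 1 ↔ kap G x b (d D 0) = 1 := by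
    intro D m
    rw [hcard, ← kap_one_iff hG hb, kap_cls hG (hd D).1 hb]
  have hkD : ∀ D, kD a b' c d' D = kap G x b (d D 0) := by
    intro D
    unfold kD
    split_ifs with h1 h2
    · obtain ⟨m, hm⟩ := h1
      rw [(heq D m).1 hm, kap_comm hG, ((hd D).1.2 m).2]
    · exact ((hone D 0).1 h2).symm
    · rcases kap_values hG (x := x) b (d D 0) with h | h | h
      · rw [kap_comm hG] at h
        obtain ⟨m, hm⟩ := cls_mem hG (hd D).1 hb h
        exact absurd ⟨m, (heq D m).2 hm.symm⟩ h1
      · exact absurd ((hone D 0).2 h) h2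
      · exact h.symm
  obtain ⟨j, hj⟩ := classify a b' c d' hab hbc hcd (by
    intro D
    by_cases h4 : ∃ m, cnt a b' c d' (special D m) = 4
    · exact Or.inl h4
    refine Or.inr fun m => ⟨?_, (hone D m).trans (hone D 0).symm⟩
    rw [hcard]
    exact card_blk_inter_le hG hb ((hd D).1.2 m).1 fun h => h4 ⟨m, (heq D m).2 h⟩) (by
    intro P S hP hS e0
    rw [hkD] at hP hS ⊢
    rw [← hkk, ← hkk]
    exact kap_zero_sum hG hb ((hd _).1.2 0).1 ((hd _).1.2 0).1 ((hd e0).1.2 0).1 hP hS
      (by rw [hkk]; exact kk_ps P S)) (by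
    intro h
    exact not_all_one hG hb (fun D => d D 0) (fun D => ((hd D).1.2 0).1)
      (by simp only [hkk]; exact kk_sum) fun D => (hkD D).symm.trans (h D))
  exact ⟨j, (hfour _ (card_table j)).1 hj⟩

end Cfsg.Agent.Lib.SRG77
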