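import Mathlib

/-!
Local structure of a strongly regular graph with parameters (77, 16, 0, 4) around a vertex `x`: the blocks
`N(x) ∩ N(b)` and the residual vectors of the remote vertices in the least eigenspace.
-/

set_option autoImplicit false
set_option linter.unusedSectionVars false

namespace Cfsg.Agent.Lib.SRG77

open Finset

variable {V : Type*} [Fintype V] [DecidableEq V] {G : SimpleGraph V} [DecidableRel G.Adj]

/-- The neighbours. -/
abbrev nb (G : SimpleGraph V) [DecidableRel G.Adj] (v : V) : Finset V := G.neighborFinset v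

/-- The block of `b` seen from `x`. -/
def blk (G : SimpleGraph V) [DecidableRel G.Adj] (x b : V) : Finset V := nb G x ∩ nb G b

/-- The vertices at distance two from `x`. -/
def remote (G : SimpleGraph V) [DecidableRel G.Adj] (x : V) : Finset V :=
  univ.filter fun b => b ≠ x ∧ ¬ G.Adj x b

/-- A multiple of the projection to the least eigenspace. -/
def em (G : SimpleGraph V) [DecidableRel G.Adj] (u v : V) : ℤ :=
  2 + 22 * (if u = v then 1 else 0) - 11 * (if G.Adj u v then 1 else 0)

/-- The residual vector of `b`. -/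
def res (G : SimpleGraph V) [DecidableRel G.Adj] (x b v : V) : ℤ :=
  6 * em G b v + 4 * em G x v + 3 * ∑ a ∈ blk G x b, em G a v

/-- The scaled inner product of residual vectors. -/
def kap (G : SimpleGraph V) [DecidableRel G.Adj] (x b c : V) : ℤ :=
  if b = c then 4 else if (blk G x b ∩ blk G x c).card = 1 then 1
    else if (blk G x b ∩ blk G x c).card = 0 ∧ ¬ G.Adj b c then 4 else -2

variable (hG : G.IsSRGWith 77 16 0 4)
include hG

theorem card_nb (v : V) : (nb G v).card = 16 := by
  rw [SimpleGraph.card_neighborFinset_eq_degree]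
  exact hG.regular v

theorem card_cn (u v : V) :
    (nb G u ∩ nb G v).card = if u = v then 16 else if G.Adj u v then 0 else 4 := by
  have hset : ∀ a b : V, Fintype.card (G.commonNeighbors a b) = (nb G a ∩ nb G b).card := by
    intro a b
    refine Fintype.card_of_finset' _ fun w => ?_
    simp [nb, SimpleGraph.mem_commonNeighbors]
  split_ifs with h h'
  · subst h
    simp only [inter_self, card_nb hG]
  · rw [← hset]
    exact hG.of_adj u v h'
  · rw [← hset]
    exact hG.of_not_adj h h'

theorem not_adj_of_common {a u v : V} (h1 : G.Adj a u) (h2 : G.Adj a v) : ¬ G.Adj u v := by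
  intro h
  have h0 := card_cn hG u v
  rw [if_neg h.ne, if_pos h, card_eq_zero, eq_empty_iff_forall_notMem] at h0
  exact h0 a (by simp [nb, h1.symm, h2.symm])

theorem card_blk {x b : V} (hb : b ∈ remote G x) : (blk G x b).card = 4 := by
  obtain ⟨h1, h2⟩ := (mem_filter.1 hb).2
  rw [blk, card_cn hG, if_neg (Ne.symm h1), if_neg h2]

theorem blk_disjoint_of_adj {x b c : V} (h : G.Adj b c) : (blk G x b ∩ blk G x c).card = 0 := by
  rw [card_eq_zero, eq_empty_iff_forall_notMem]
  intro a ha
  simp only [blk, mem_inter, nb, SimpleGraph.mem_neighborFinset] at ha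
  exact not_adj_of_common hG ha.1.2.symm ha.2.2.symm h

theorem card_remote (x : V) : (remote G x).card = 60 := by
  have h : remote G x = (univ \ insert x (nb G x)) := by
    ext b
    simp [remote, nb]
  rw [h, card_sdiff_of_subset (subset_univ _), card_univ, hG.card, card_insert_of_notMem (by simp [nb]),
    card_nb hG]

/-- Double counting: neighbours in a set. -/
theorem sum_count (S : Finset V) : ∑ y, ((nb G y ∩ S).card : ℤ) = 16 * S.card ∧
    ∑ y, ((nb G y ∩ S).card : ℤ) * ((nb G y ∩ S).card : ℤ)
      = ∑ u ∈ S, ∑ v ∈ S, ((nb G u ∩ nb G v).card : ℤ) := by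
  have hc : ∀ y, ((nb G y ∩ S).card : ℤ) = ∑ u ∈ S, if y ∈ nb G u then (1 : ℤ) else 0 := by
    intro y
    rw [sum_boole]
    congr 2
    ext u
    simp [nb, G.adj_comm y u, and_comm]
  refine ⟨?_, ?_⟩
  · simp only [hc]
    rw [sum_comm]
    simp only [sum_boole, filter_univ_mem, card_nb hG]
    simp [mul_comm]
  · simp only [hc, sum_mul_sum]
    rw [sum_comm]
    refine sum_congr rfl fun u _ => ?_
    rw [sum_comm]
    refine sum_congr rfl fun v _ => ?_
    simp only [mul_ite, mul_one, mul_zero, ← ite_and, sum_boole]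
    congr 2
    ext y
    simp only [mem_filter, mem_univ, true_and, mem_inter, and_comm]

theorem card_blk_inter_le {x b c : V} (hb : b ∈ remote G x) (hc : c ∈ remote G x) (hbc : b ≠ c) :
    (blk G x b ∩ blk G x c).card ≤ 2 := by
  by_contra hlt
  obtain ⟨T, hT, hT3⟩ := exists_subset_card_eq (show 3 ≤ (blk G x b ∩ blk G x c).card by omega)
  obtain ⟨a1, a2, a3, h12, h13, h23, rfl⟩ := card_eq_three.1 hT3
  have hm : ∀ a ∈ ({a1, a2, a3} : Finset V), G.Adj a x ∧ G.Adj a b ∧ G.Adj a c := by
    intro a ha
    have := hT ha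
    simp only [blk, mem_inter, nb, SimpleGraph.mem_neighborFinset] at this
    exact ⟨this.1.1.symm, this.1.2.symm, this.2.2.symm⟩
  obtain ⟨h1x, h1b, h1c⟩ := hm a1 (by simp)
  obtain ⟨h2x, h2b, h2c⟩ := hm a2 (by simp)
  obtain ⟨h3x, h3b, h3c⟩ := hm a3 (by simp)
  obtain ⟨hbx, nxb⟩ := (mem_filter.1 hb).2
  obtain ⟨hcx, nxc⟩ := (mem_filter.1 hc).2
  have nbc := not_adj_of_common hG h1b h1c
  have n12 := not_adj_of_common hG h1x.symm h2x.symm
  have n13 := not_adj_of_common hG h1x.symm h3x.symm
  have n23 := not_adj_of_common hG h2x.symm h3x.symm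
  have n21 : ¬ G.Adj a2 a1 := fun h => n12 (G.adj_symm h)
  have n31 : ¬ G.Adj a3 a1 := fun h => n13 (G.adj_symm h)
  have n32 : ¬ G.Adj a3 a2 := fun h => n23 (G.adj_symm h)
  have nbx : ¬ G.Adj b x := fun h => nxb (G.adj_symm h)
  have ncx : ¬ G.Adj c x := fun h => nxc (G.adj_symm h)
  have ncb : ¬ G.Adj c b := fun h => nbc (G.adj_symm h)
  let S : Finset V := {a1, a2, a3, x, b, c}
  obtain ⟨s1, s2⟩ := sum_count hG S
  have hcardS : S.card = 6 := by
    simp [S, h12, h13, h23, h1x.ne, h1b.ne, h1c.ne, h2x.ne, h2b.ne, h2c.ne, h3x.ne, h3b.ne, h3c.ne,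
      Ne.symm hbx, Ne.symm hcx, hbc]
  have hs2 : ∑ u ∈ S, ∑ v ∈ S, ((nb G u ∩ nb G v).card : ℤ) = 144 := by
    simp [S, card_cn hG, sum_insert, h12, h13, h23, h1x.ne, h1b.ne, h1c.ne, h2x.ne, h2b.ne, h2c.ne,
      h3x.ne, h3b.ne, h3c.ne, h1x.ne', h1b.ne', h1c.ne', h2x.ne', h2b.ne', h2c.ne', h3x.ne', h3b.ne',
      h3c.ne', h12.symm, h13.symm, h23.symm, h1x, h1b, h1c, h2x, h2b, h2c, h3x, h3b, h3c, h1x.symm,
      h1b.symm, h1c.symm, h2x.symm, h2b.symm, h2c.symm, h3x.symm, h3b.symm, h3c.symm, n12, n13, n23,
      nxb, nxc, nbc, n21, n31, n32, nbx, ncx, ncb, hbx, hcx, Ne.symm hbx, Ne.symm hcx, hbc, Ne.symm hbc]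
  let t : V → ℤ := fun y => ((nb G y ∩ S).card : ℤ)
  have htot : ∑ y, (t y - 1) * (t y - 2) = 10 := by
    have : ∀ y, (t y - 1) * (t y - 2) = t y * t y - 3 * t y + 2 := fun y => by ring
    simp only [this, sum_add_distrib, sum_sub_distrib, ← mul_sum, t, s1, s2, hs2, hcardS]
    simp [hG.card]
  have hsix : ∀ y ∈ S, 3 ≤ t y := by
    intro y hy
    have h3 : ∀ T : Finset V, T.card = 3 → T ⊆ nb G y ∩ S → 3 ≤ t y := by
      intro T hT hsub
      have := card_le_card hsub
      simp only [t]
      omega
    have hA : ({a1, a2, a3} : Finset V).card = 3 := card_eq_three.2 ⟨a1, a2, a3, h12, h13, h23, rfl⟩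
    have hX : ({x, b, c} : Finset V).card = 3 :=
      card_eq_three.2 ⟨x, b, c, Ne.symm hbx, Ne.symm hcx, hbc, rfl⟩
    simp only [S, mem_insert, mem_singleton] at hy
    rcases hy with rfl | rfl | rfl | rfl | rfl | rfl
    iterate 3
      refine h3 _ hX ?_
      intro z hz
      simp only [mem_insert, mem_singleton] at hz
      rcases hz with rfl | rfl | rfl <;> simp [nb, S, *]
    iterate 3
      refine h3 _ hA ?_
      intro z hz
      simp only [mem_insert, mem_singleton] at hz
      rcases hz with rfl | rfl | rfl <;> simp [nb, S, h1x.symm, h1b.symm, h1c.symm, h2x.symm, h2b.symm,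
        h2c.symm, h3x.symm, h3b.symm, h3c.symm]
  have hge : ∑ y ∈ S, (2 : ℤ) ≤ ∑ y, (t y - 1) * (t y - 2) := by
    refine le_trans (sum_le_sum fun y hy => ?_)
      (sum_le_sum_of_subset_of_nonneg (subset_univ S) fun y _ _ => ?_)
    · nlinarith [hsix y hy]
    · rcases le_or_gt (t y) 1 with h | h <;> nlinarith
  rw [htot] at hge
  simp [hcardS] at hge

theorem em_dot (u v : V) : ∑ w, em G u w * em G v w = 88 * em G u v := by
  have h : ∀ w, em G u w * em G v w
      = 4 + 44 * (if u = w then (1 : ℤ) else 0) + 44 * (if v = w then (1 : ℤ) else 0)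
        - 22 * (if w ∈ nb G u then (1 : ℤ) else 0) - 22 * (if w ∈ nb G v then (1 : ℤ) else 0)
        + 484 * (if u = w then (if v = w then (1 : ℤ) else 0) else 0)
        - 242 * (if u = w then (if w ∈ nb G v then (1 : ℤ) else 0) else 0)
        - 242 * (if v = w then (if w ∈ nb G u then (1 : ℤ) else 0) else 0)
        + 121 * (if w ∈ nb G u ∩ nb G v then (1 : ℤ) else 0) := by
    intro w
    simp only [em, nb, SimpleGraph.mem_neighborFinset, mem_inter]
    by_cases h1 : u = w <;> by_cases h2 : v = w <;> by_cases h3 : G.Adj u w <;> by_cases h4 : G.Adj v w <;>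
      (subst_vars; first | exact absurd rfl (SimpleGraph.Adj.ne ‹_›) | simp_all)
  simp only [h, sum_add_distrib, sum_sub_distrib, ← mul_sum, sum_ite_eq, mem_univ, if_true, sum_boole,
    filter_univ_mem, card_nb hG, card_cn hG, sum_const, card_univ, hG.card]
  by_cases huv : u = v
  · subst huv
    simp [em, nb]
  · by_cases ha : G.Adj u v
    · simp [em, nb, huv, Ne.symm huv, ha, ha.symm]
    · have ha' : ¬ G.Adj v u := fun h => ha (G.adj_symm h)
      simp [em, nb, huv, Ne.symm huv, ha, ha']

theorem res_dot_em (x b c : V) :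
    ∑ v, res G x b v * em G c v
      = 88 * (6 * em G b c + 4 * em G x c + 3 * ∑ a ∈ blk G x b, em G a c) := by
  simp only [res, add_mul, sum_add_distrib, mul_assoc, sum_mul, ← mul_sum]
  rw [em_dot hG, em_dot hG, sum_comm]
  simp only [em_dot hG, ← mul_sum]
  ring

theorem sum_em_of_forall {T : Finset V} {c : V} {k : ℤ} (h : ∀ a ∈ T, em G a c = k) :
    ∑ a ∈ T, em G a c = T.card * k := by
  rw [sum_congr rfl h, sum_const, nsmul_eq_mul]

theorem res_orth {x b : V} (hb : b ∈ remote G x) {c : V} (hc : c = x ∨ c ∈ nb G x) :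
    6 * em G b c + 4 * em G x c + 3 * ∑ a ∈ blk G x b, em G a c = 0 := by
  obtain ⟨hbx, nxb⟩ := (mem_filter.1 hb).2
  have hcard := card_blk hG hb
  have hmem : ∀ a ∈ blk G x b, G.Adj x a ∧ G.Adj b a := by
    intro a ha
    simpa [blk, nb] using ha
  rcases hc with rfl | hcx
  · rw [sum_em_of_forall hG (k := -9) fun a ha => by simp [em, (hmem a ha).1.ne', (hmem a ha).1.symm],
      hcard]
    have nbx : ¬ G.Adj b c := fun h => nxb (G.adj_symm h)
    simp [em, hbx, nbx]
  · have hxc : G.Adj x c := by simpa [nb] using hcx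
    have hna : ∀ a ∈ blk G x b, ¬ G.Adj a c := fun a ha => not_adj_of_common hG (hmem a ha).1 hxc
    have hbc : b ≠ c := fun h => nxb (h ▸ hxc)
    have hsum : ∑ a ∈ blk G x b, em G a c = 8 + 22 * (if c ∈ blk G x b then 1 else 0) := by
      have : ∀ a ∈ blk G x b, em G a c = 2 + 22 * (if a = c then 1 else 0) := by
        intro a ha
        simp [em, hna a ha]
      rw [sum_congr rfl this, sum_add_distrib, ← mul_sum, sum_ite_eq', sum_const, hcard]
      norm_num
    rw [hsum]
    by_cases hadj : G.Adj b c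
    · simp [em, hbc, hadj, hxc.ne, hxc, blk, nb]
    · simp [em, hbc, hadj, hxc.ne, hxc, blk, nb]

theorem res_dot {x b c : V} (hb : b ∈ remote G x) (hc : c ∈ remote G x) :
    ∑ v, res G x b v * res G x c v = 5808 * kap G x b c := by
  have hq : ∀ d, d = x ∨ d ∈ nb G x → ∑ v, res G x b v * em G d v = 0 := by
    intro d hd
    rw [res_dot_em hG, res_orth hG hb hd, mul_zero]
  have hz : ∑ a ∈ blk G x c, ∑ v, res G x b v * em G a v = 0 :=
    sum_eq_zero fun a ha => hq a (Or.inr (mem_inter.1 ha).1)
  have hexp : ∀ v, res G x b v * res G x c v = 6 * (res G x b v * em G c v)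
      + 4 * (res G x b v * em G x v) + 3 * ∑ a ∈ blk G x c, res G x b v * em G a v := by
    intro v
    conv_lhs => arg 2; rw [res]
    rw [← mul_sum]
    ring
  rw [sum_congr rfl fun v _ => hexp v, sum_add_distrib, sum_add_distrib, ← mul_sum, ← mul_sum, ← mul_sum,
    sum_comm, hq x (Or.inl rfl),
    hz, res_dot_em hG]
  obtain ⟨hcx, nxc⟩ := (mem_filter.1 hc).2
  have hxc : em G x c = 2 := by simp [em, Ne.symm hcx, nxc]
  have hsum : ∑ a ∈ blk G x b, em G a c = 8 - 11 * (blk G x b ∩ blk G x c).card := by
    have : ∀ a ∈ blk G x b, em G a c = 2 - 11 * (if a ∈ blk G x c then 1 else 0) := by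
      intro a ha
      have hxa : G.Adj x a := by simpa [nb] using (mem_inter.1 ha).1
      have hac : a ≠ c := fun h => nxc (h ▸ hxa)
      simp [em, hac, blk, nb, hxa, G.adj_comm a c]
    rw [sum_congr rfl this, sum_sub_distrib, ← mul_sum, sum_boole, sum_const, card_blk hG hb,
      show (blk G x b).filter (fun a => a ∈ blk G x c) = blk G x b ∩ blk G x c by
        ext; simp]
    norm_num
  rw [hsum, hxc]
  by_cases hbc : b = c
  · subst hbc
    simp [kap, em, card_blk hG hb]
  · have hle := card_blk_inter_le hG hb hc hbc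
    by_cases hadj : G.Adj b c
    · simp [kap, em, hbc, hadj, blk_disjoint_of_adj hG hadj]
    · simp only [kap, em, if_neg hbc, if_neg hadj]
      generalize (blk G x b ∩ blk G x c).card = i at hle ⊢
      interval_cases i <;> norm_num [hadj]

/-- Equal residual vectors. -/
theorem kap_eq_of_four {x b c d : V} (hb : b ∈ remote G x) (hc : c ∈ remote G x) (hd : d ∈ remote G x)
    (h : kap G x b c = 4) : kap G x b d = kap G x c d := by
  have hsq : ∑ v, (res G x b v - res G x c v) * (res G x b v - res G x c v) = 0 := by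
    have e : ∀ v, (res G x b v - res G x c v) * (res G x b v - res G x c v) = res G x b v * res G x b v
        + res G x c v * res G x c v - 2 * (res G x b v * res G x c v) := fun v => by ring
    simp only [e, sum_add_distrib, sum_sub_distrib, ← mul_sum, res_dot hG hb hb, res_dot hG hc hc,
      res_dot hG hb hc, h]
    simp [kap]
  have hz := (sum_eq_zero_iff_of_nonneg fun v _ => mul_self_nonneg _).1 hsq
  have e : ∀ v, res G x b v = res G x c v := fun v => sub_eq_zero.1 (mul_self_eq_zero.1 (hz v (mem_univ v)))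
  have h1 := res_dot hG hb hd
  have h2 := res_dot hG hc hd
  simp only [e] at h1
  linarith

/-- Three pairwise values `-2` sum to zero. -/
theorem kap_zero_sum {x b c d e : V} (hb : b ∈ remote G x) (hc : c ∈ remote G x) (hd : d ∈ remote G x)
    (he : e ∈ remote G x) (hbc : kap G x b c = -2) (hbd : kap G x b d = -2) (hcd : kap G x c d = -2) :
    kap G x b e + kap G x c e + kap G x d e = 0 := by
  have hsq : ∑ v, (res G x b v + res G x c v + res G x d v) * (res G x b v + res G x c v + res G x d v)
      = 0 := by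
    have e' : ∀ v, (res G x b v + res G x c v + res G x d v) * (res G x b v + res G x c v + res G x d v)
        = res G x b v * res G x b v + res G x c v * res G x c v + res G x d v * res G x d v
          + 2 * (res G x b v * res G x c v) + 2 * (res G x b v * res G x d v)
          + 2 * (res G x c v * res G x d v) := fun v => by ring
    simp only [e', sum_add_distrib, ← mul_sum, res_dot hG hb hb, res_dot hG hc hc, res_dot hG hd hd,
      res_dot hG hb hc, res_dot hG hb hd, res_dot hG hc hd, hbc, hbd, hcd]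
    simp [kap]
  have hz := (sum_eq_zero_iff_of_nonneg fun v _ => mul_self_nonneg _).1 hsq
  have h0 : ∑ v, (res G x b v * res G x e v + res G x c v * res G x e v + res G x d v * res G x e v) = 0 :=
    sum_eq_zero fun v _ => by
      rw [← add_mul, ← add_mul, mul_self_eq_zero.1 (hz v (mem_univ v)), zero_mul]
  simp only [sum_add_distrib, res_dot hG hb he, res_dot hG hc he, res_dot hG hd he] at h0
  linarith

/-- No vertex has value `1` against five classes of the rows, columns, rectangles pattern. -/
theorem not_all_one {x b : V} (hb : b ∈ remote G x) (d : Fin 5 → V) (hd : ∀ i, d i ∈ remote G x)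
    (hkk : ∑ i, ∑ j, kap G x (d i) (d j) = 4) : ¬ ∀ i, kap G x b (d i) = 1 := by
  intro h
  have hnn : (0 : ℤ) ≤ ∑ v, (res G x b v - ∑ i, res G x (d i) v) * (res G x b v - ∑ i, res G x (d i) v) :=
    sum_nonneg fun v _ => mul_self_nonneg _
  have e : ∀ v, (res G x b v - ∑ i, res G x (d i) v) * (res G x b v - ∑ i, res G x (d i) v)
      = res G x b v * res G x b v - 2 * ∑ i, res G x b v * res G x (d i) v
        + ∑ i, ∑ j, res G x (d i) v * res G x (d j) v := by
    intro v
    rw [← mul_sum, ← sum_mul_sum]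
    ring
  rw [sum_congr rfl fun v _ => e v, sum_add_distrib, sum_sub_distrib, ← mul_sum] at hnn
  have e1 : ∑ v, ∑ i, res G x b v * res G x (d i) v = 5808 * 5 := by
    rw [sum_comm]
    simp [res_dot hG hb (hd _), h]
  have e2 : ∑ v, ∑ i, ∑ j, res G x (d i) v * res G x (d j) v = 5808 * 4 := by
    rw [sum_comm, ← hkk, mul_sum]
    refine sum_congr rfl fun i _ => ?_
    rw [sum_comm, mul_sum]
    exact sum_congr rfl fun j _ => res_dot hG (hd i) (hd j)
  rw [e1, e2, res_dot hG hb hb] at hnn
  simp [kap] at hnn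

/-- There are three other vertices with disjoint block and not adjacent. -/
theorem card_parallel {x b : V} (hb : b ∈ remote G x) :
    ((remote G x).filter fun c => c ≠ b ∧ (blk G x b ∩ blk G x c).card = 0 ∧ ¬ G.Adj b c).card = 3 ∧
      ∃ c ∈ remote G x, (blk G x b ∩ blk G x c).card = 1 := by
  obtain ⟨hbx, nxb⟩ := (mem_filter.1 hb).2
  let R := (remote G x).erase b
  let i : V → ℕ := fun c => (blk G x b ∩ blk G x c).card
  have hR : R.card = 59 := by rw [card_erase_of_mem hb, card_remote hG]
  have hswap : ∀ f : V → ℤ, ∑ c ∈ remote G x, f c = f b + ∑ c ∈ R, f c := fun f => (add_sum_erase _ f hb).symm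
  have hint : ∀ c, ((i c : ℕ) : ℤ) = ∑ a ∈ blk G x b, if a ∈ blk G x c then (1 : ℤ) else 0 := by
    intro c
    simp only [i, sum_boole, filter_mem_eq_inter]
  have hcnt : ∀ a a' : V, a ∈ blk G x b → a' ∈ blk G x b →
      ((remote G x).filter fun c => a ∈ blk G x c ∧ a' ∈ blk G x c).card = if a = a' then 15 else 3 := by
    intro a a' ha ha'
    have hxa : G.Adj x a := by simpa [nb] using (mem_inter.1 ha).1
    have hxa' : G.Adj x a' := by simpa [nb] using (mem_inter.1 ha').1
    have hset : ((remote G x).filter fun c => a ∈ blk G x c ∧ a' ∈ blk G x c)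
        = (nb G a ∩ nb G a').erase x := by
      ext c
      simp only [remote, blk, nb, mem_filter, mem_univ, true_and, mem_inter, mem_erase,
        SimpleGraph.mem_neighborFinset]
      constructor
      · rintro ⟨⟨h1, -⟩, ⟨-, h2⟩, -, h3⟩
        exact ⟨h1, h2.symm, h3.symm⟩
      · rintro ⟨h1, h2, h3⟩
        exact ⟨⟨h1, fun h => not_adj_of_common hG hxa.symm h2 h⟩, ⟨hxa, h2.symm⟩, hxa', h3.symm⟩
    rw [hset, card_erase_of_mem (by simp [nb, hxa.symm, hxa'.symm]), card_cn hG]
    split_ifs with h h'
    · rfl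
    · exact absurd h' (not_adj_of_common hG hxa hxa')
    · rfl
  have s1 : ∑ c ∈ remote G x, (i c : ℤ) = 60 := by
    simp only [hint]
    rw [sum_comm]
    have : ∀ a ∈ blk G x b, ∑ c ∈ remote G x, (if a ∈ blk G x c then (1 : ℤ) else 0) = 15 := by
      intro a ha
      rw [sum_boole]
      have h15 := hcnt a a ha ha
      simp only [and_self, if_pos] at h15
      rw [h15]
      norm_num
    rw [sum_congr rfl this, sum_const, card_blk hG hb]
    norm_num
  have s2 : ∑ c ∈ remote G x, (i c : ℤ) * i c = 96 := by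
    simp only [hint, sum_mul_sum]
    rw [sum_comm]
    have : ∀ a ∈ blk G x b, ∑ c ∈ remote G x, ∑ a' ∈ blk G x b,
        ((if a ∈ blk G x c then (1 : ℤ) else 0) * if a' ∈ blk G x c then (1 : ℤ) else 0) = 24 := by
      intro a ha
      rw [sum_comm]
      have : ∀ a' ∈ blk G x b, ∑ c ∈ remote G x,
          ((if a ∈ blk G x c then (1 : ℤ) else 0) * if a' ∈ blk G x c then (1 : ℤ) else 0)
            = 3 + 12 * if a = a' then 1 else 0 := by
        intro a' ha'
        simp only [mul_ite, mul_one, mul_zero, ← ite_and, sum_boole]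
        rw [show ((remote G x).filter fun c => a' ∈ blk G x c ∧ a ∈ blk G x c)
          = ((remote G x).filter fun c => a ∈ blk G x c ∧ a' ∈ blk G x c) by
            simp only [and_comm], hcnt a a' ha ha']
        split_ifs <;> norm_num
      rw [sum_congr rfl this, sum_add_distrib, ← mul_sum, sum_ite_eq, if_pos ha, sum_const, card_blk hG hb]
      norm_num
    rw [sum_congr rfl this, sum_const, card_blk hG hb]
    norm_num
  have hib : i b = 4 := by simp [i, card_blk hG hb]
  rw [hswap, hib] at s1 s2
  have hle : ∀ c ∈ R, i c ≤ 2 := fun c hc =>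
    card_blk_inter_le hG hb (mem_of_mem_erase hc) (Ne.symm (ne_of_mem_erase hc))
  have split2 : ∀ c ∈ R, ((if i c = 0 then (1 : ℤ) else 0) = 1 - (3 * (i c : ℤ) - i c * i c) / 2) ∧
      ((if i c = 1 then (1 : ℤ) else 0) = 2 * (i c : ℤ) - i c * i c) := by
    intro c hc
    have := hle c hc
    interval_cases h : i c <;> simp
  have split3 : ∀ c ∈ R, 2 * (if i c = 0 then (1 : ℤ) else 0) = 2 - 3 * (i c : ℤ) + i c * i c := by
    intro c hc
    have := hle c hc
    interval_cases h : i c <;> simp
  have n0 : 2 * ((R.filter fun c => i c = 0).card : ℤ) = 2 * 15 := by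
    have := sum_congr rfl split3
    rw [← mul_sum, sum_boole, sum_add_distrib, sum_sub_distrib, sum_const, hR, ← mul_sum] at this
    push_cast at s1 s2
    rw [this]
    simp only [nsmul_eq_mul]
    push_cast
    linarith
  refine ⟨?_, ?_⟩
  · have hadj : (R.filter fun c => i c = 0).filter (fun c => G.Adj b c) = nb G b \ blk G x b := by
      ext c
      simp only [R, i, mem_filter, mem_erase, mem_sdiff, remote, mem_univ, true_and]
      constructor
      · intro h
        refine ⟨by simpa [nb] using h.2, fun hc => ?_⟩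
        exact h.1.1.2.2 (by simpa [nb] using (mem_inter.1 hc).1)
      · intro h
        have h1 : G.Adj b c := by simpa [nb] using h.1
        refine ⟨⟨⟨h1.ne', fun he => nxb (by rw [← he]; exact h1.symm), fun he => h.2 ?_⟩,
          blk_disjoint_of_adj hG h1⟩, h1⟩
        simp [blk, nb, he, h1]
    have hsub : blk G x b ⊆ nb G b := inter_subset_right
    have h12 := congrArg card hadj
    rw [card_sdiff_of_subset hsub, card_nb hG, card_blk hG hb] at h12
    have hsum := card_filter_add_card_filter_not (s := R.filter fun c => i c = 0) (fun c => G.Adj b c)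
    have heq : (remote G x).filter (fun c => c ≠ b ∧ (blk G x b ∩ blk G x c).card = 0 ∧ ¬ G.Adj b c)
        = (R.filter fun c => i c = 0).filter (fun c => ¬ G.Adj b c) := by
      ext c
      simp [R, i]
      tauto
    rw [heq]
    omega
  · by_contra hnone
    simp only [not_exists, not_and] at hnone
    have h0 : ∑ c ∈ R, (2 * (i c : ℤ) - i c * i c) = 0 :=
      sum_eq_zero fun c hc => by
        rw [← (split2 c hc).2, if_neg (hnone c (mem_of_mem_erase hc))]
    rw [sum_sub_distrib, ← mul_sum] at h0
    push_cast at s1 s2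
    linarith

theorem kap_comm {x b c : V} : kap G x b c = kap G x c b := by
  simp only [kap, inter_comm (blk G x b), eq_comm (a := b), G.adj_comm b c]

end Cfsg.Agent.Lib.SRG77
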