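import Cfsg.Agent.Lib.SRG77.Coord

/-!
The strongly regular graph with parameters (77, 16, 0, 4) is unique.
-/

set_option autoImplicit false

namespace Cfsg.Agent.Lib.SRG77

open Finset

theorem exists_model_equiv {V : Type*} [Fintype V] {G : SimpleGraph V} [DecidableRel G.Adj]
    (hG : G.IsSRGWith 77 16 0 4) :
    ∃ F : Unit ⊕ Fin 16 ⊕ Fin 60 ≃ V, ∀ p q, G.Adj (F p) (F q) ↔ modelAdj p q := by
  classical
  obtain ⟨x⟩ : Nonempty V := Fintype.card_pos_iff.1 (by rw [hG.card]; norm_num)
  obtain ⟨e, he, htab⟩ := exists_table hG x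
  choose j hj using htab
  let J : ↥(remote G x) → Fin 60 := fun b => j b.1 b.2
  have hJinj : Function.Injective J := fun b c h => Subtype.ext
    (pre_injective hG he b.2 c.2 (by rw [hj b.1 b.2, hj c.1 c.2]; exact congrArg (setOfMask ∘ table) h))
  have hJ : Function.Bijective J := (Fintype.bijective_iff_injective_and_card J).2
    ⟨hJinj, by rw [Fintype.card_coe, card_remote hG, Fintype.card_fin]⟩
  let E := Equiv.ofBijective J hJ
  let B : Fin 60 → V := fun i => (E.symm i).1
  have hB : ∀ i, B i ∈ remote G x := fun i => (E.symm i).2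
  have hBpre : ∀ i, pre G x e (B i) = setOfMask (table i) := by
    intro i
    have h := hj (B i) (hB i)
    rwa [show j (B i) (hB i) = i from E.apply_symm_apply i] at h
  let f : Unit ⊕ Fin 16 ⊕ Fin 60 → V := Sum.elim (fun _ => x) (Sum.elim e B)
  have hex : ∀ n, G.Adj x (e n) := fun n => by simpa [nb] using he.2 n
  have hbx : ∀ i, B i ≠ x ∧ ¬ G.Adj x (B i) := fun i => (mem_filter.1 (hB i)).2
  have hBe : ∀ i n, B i ≠ e n := fun i n h => (hbx i).2 (h ▸ hex n)
  have hf : Function.Injective f := by
    rintro (u | n | i) (u' | n' | i') h <;> simp only [f, Sum.elim_inl, Sum.elim_inr] at h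
    · rfl
    · exact absurd h (hex n').ne
    · exact absurd h.symm (hbx i').1
    · exact absurd h.symm (hex n).ne
    · rw [he.1 h]
    · exact absurd h.symm (hBe i' n)
    · exact absurd h (hbx i).1
    · exact absurd h (hBe i n')
    · rw [E.symm.injective (Subtype.ext h)]
  let F := Equiv.ofBijective f ((Fintype.bijective_iff_injective_and_card f).2
    ⟨hf, by rw [hG.card]; simp⟩)
  refine ⟨F, ?_⟩
  have hone : ∀ i k, kap G x (B i) (B k) = 1 ↔ oneB i k = true := by
    intro i k
    rw [kap_one_iff hG (hB i), ← card_pre_inter hG he, hBpre, hBpre, setOfMask_inter]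
    exact (card_inter_table i k).1
  have hzero : ∀ i k, (blk G x (B i) ∩ blk G x (B k)).card = 0 ↔ table i &&& table k = 0 := by
    intro i k
    rw [← card_pre_inter hG he, hBpre, hBpre, setOfMask_inter]
    exact (card_inter_table i k).2
  have hpar : ∀ i k, parB i k = true ↔
      (blk G x (B i) ∩ blk G x (B k)).card = 0 ∧ ¬ G.Adj (B i) (B k) := by
    intro i
    let P := univ.filter fun k => (blk G x (B i) ∩ blk G x (B k)).card = 0 ∧ ¬ G.Adj (B i) (B k)
    have hsub : P ⊆ univ.filter fun k => parB i k = true := by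
      intro k hk
      simp only [P, mem_filter, mem_univ, true_and] at hk ⊢
      have h4 : kap G x (B i) (B k) = 4 := (kap_four_iff hG (hB i)).2 (Or.inr hk)
      simp only [parB, Bool.and_eq_true, decide_eq_true_eq]
      refine ⟨(hzero i k).1 hk.1, fun l => ?_⟩
      rw [Bool.eq_iff_iff, ← hone, ← hone, kap_eq_of_four hG (hB i) (hB k) (hB l) h4]
    have hcard : P.card = 3 := by
      rw [← (card_parallel hG (hB i)).1]
      refine card_bij (fun k _ => B k) ?_ ?_ ?_
      · intro k hk
        simp only [P, mem_filter, mem_univ, true_and] at hk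
        refine mem_filter.2 ⟨hB k, fun h => ?_, hk⟩
        rw [h, inter_self, card_blk hG (hB i)] at hk
        exact absurd hk.1 (by norm_num)
      · intro k _ l _ h
        exact E.symm.injective (Subtype.ext h)
      · intro c hc
        obtain ⟨hc0, -, hc2⟩ := mem_filter.1 hc
        have hBc : B (E ⟨c, hc0⟩) = c := by simp [B]
        refine ⟨E ⟨c, hc0⟩, ?_, hBc⟩
        simp only [P, mem_filter, mem_univ, true_and, hBc]
        exact hc2
    have heq := eq_of_subset_of_card_le hsub (by rw [card_parB, hcard])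
    intro k
    have := Finset.ext_iff.1 heq k
    simp only [P, mem_filter, mem_univ, true_and] at this
    exact this.symm
  have hpt : ∀ n i, G.Adj (e n) (B i) ↔ (table i).testBit n.val = true := by
    intro n i
    rw [← mem_setOfMask, ← hBpre]
    simp [pre, blk, nb, hex n, G.adj_comm (B i) (e n)]
  rintro (u | n | i) (u' | n' | i') <;>
    simp only [F, Equiv.ofBijective_apply, f, Sum.elim_inl, Sum.elim_inr, modelAdj]
  · simp
  · simp [hex n']
  · simp [(hbx i').2]
  · simp [(hex n).symm]
  · simp [not_adj_of_common hG (hex n) (hex n')]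
  · exact hpt n i'
  · simp [G.adj_comm (B i) x, (hbx i).2]
  · rw [G.adj_comm]; exact hpt n' i
  · rw [← Bool.not_eq_true, hpar, ← hzero]
    exact ⟨fun h => ⟨blk_disjoint_of_adj hG h, fun h' => h'.2 h⟩, fun h => not_not.1 fun hn => h.2 ⟨h.1, hn⟩⟩

end Cfsg.Agent.Lib.SRG77
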